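import Mathlib
import Cfsg.Agent.H448.OZ.BCMid
import Cfsg.Agent.H477.OZ.PspThirteen

/-!
# S4842: `PSp₈(q)` from the middle value only (helper448)
-/

set_option autoImplicit false

open Cfsg Cfsg.Agent.H730.OZ Cfsg.Agent.H477.OZ Cfsg.Agent.H364.OZ

namespace Cfsg.Agent.H448.OZ

universe u

/-- **`PSp₈(q)`, `q ≥ 3`**: only the middle value is left. -/
theorem row_psp4_mid {S : Type u} [Group S] [Finite S] {F : Type} [Field F] [Fintype F] {p a : ℕ}
    (hs : IsSimpleGroup S) (e : S ≃* PSp 4 F) (hq : 3 ≤ Fintype.card F) (hp : p.Prime) (ha : 0 < a)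
    (hF : Fintype.card F = p ^ a)
    (hHC : ∀ χ : S → ℂ, IsIrrCharacter S χ → OneZero χ → ∑ᶠ u ∈ pSet p S, χ u = (p : ℂ) ^ (a * 8) * χ 1 → False) :
    Row S :=
  row_psp4_of hs e hq hp ha hF (fun hF => H477.OZ.cong_psp8_three e hF) hHC

end Cfsg.Agent.H448.OZ
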